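import Cfsg.Agent.H962.FC.Mixed
import Cfsg.Agent.H374.TC.CuMain

/-!
# S2464, `F₄(q)`, `q = 5, 7, 17`: the mixed elements, final form (helper962 with helper374's `c16`)
-/

set_option autoImplicit false

namespace Cfsg.Agent.H962.FC

open Cfsg.Lie Cfsg.Agent.H520.FC

universe u

variable {K : Type u} [Field K] [Finite K]

/-- **The mixed elements, with the factor 10.** -/
theorem mixed10 (p : ℕ) [Fact p.Prime] [CharP K p] (hq : Nat.card K = 5 ∨ Nat.card K = 7 ∨ Nat.card K = 17) :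
    ∀ u s : ↥(chevF4.group K), u * s = s * u → u ≠ 1 → u ∈ XT K → s ≠ 1 → (orderOf s).Coprime p →
      10 * Nat.card ↥(Subgroup.centralizer ({u * s} : Set ↥(chevF4.group K))) < d2 (Nat.card K) ^ 2 :=
  mixed10_of (p := p) hq H374.TC.Cu.c16

/-- **The mixed elements.** -/
theorem mixed (p : ℕ) [Fact p.Prime] [CharP K p] (hq : Nat.card K = 5 ∨ Nat.card K = 7 ∨ Nat.card K = 17) :
    Mixed K p :=
  mixed_of (p := p) hq H374.TC.Cu.c16

end Cfsg.Agent.H962.FC
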